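import Cfsg.Agent.Char.Homog
import Cfsg.Agent.Char.SmallDeg2

/-!
# Winter's theorem, solvable case: chief factors above the centre (helper49)
-/

set_option autoImplicit false
set_option linter.unusedSectionVars false

namespace Cfsg.Agent.H49.W

open Subgroup

universe u

variable {G : Type u} [Group G] [Finite G]

theorem exists_chief_above_center (hsol : Group.IsSolvable G) (hne : center G ≠ ⊤) :
    ∃ (M : Subgroup G) (r t : ℕ), M.Normal ∧ center G < M ∧ r.Prime ∧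
      (center G).relIndex M = r ^ t ∧ (∀ a ∈ M, ∀ b ∈ M, a * b * a⁻¹ * b⁻¹ ∈ center G) ∧
      (∀ m ∈ M, ∃ k : ℕ, m ^ r ^ k ∈ center G) := by
  classical
  obtain ⟨M, hM⟩ := (Set.toFinite {M : Subgroup G | M.Normal ∧ center G < M}).exists_minimal
    ⟨⊤, inferInstance, lt_top_iff_ne_top.mpr hne⟩
  obtain ⟨⟨hMn, hZM⟩, hmin⟩ := hM
  have hsolZ : Group.IsSolvable (G ⧸ center G) :=
    Group.isSolvable_of_surjective (QuotientGroup.mk'_surjective (center G))
  obtain ⟨L, hLn, hZL, hLM, -, hcomm⟩ := Char.GD.exists_chief_below (center G) M hZM hsolZ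
  have hL : L = center G := by
    rcases hZL.eq_or_lt with h | h
    · exact h.symm
    · exact absurd (hmin ⟨hLn, h⟩ hLM.le) hLM.not_ge
  rw [hL] at hcomm
  have hab : ∀ a ∈ M, ∀ b ∈ M, a * b * a⁻¹ * b⁻¹ ∈ center G := fun a ha b hb =>
    hcomm (commutator_mem_commutator ha hb)
  have hidx : (center G).relIndex M ≠ 1 := fun h => hZM.not_ge (relIndex_eq_one.mp h)
  obtain ⟨r, hr, hrd⟩ := Nat.exists_prime_and_dvd hidx
  have hrF := Fact.mk hr
  have hq : ∀ x : G, ((x : G ⧸ center G) = 1) ↔ x ∈ center G := fun x => QuotientGroup.eq_one_iff x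
  let R : Subgroup G :=
    { carrier := {m | m ∈ M ∧ ∃ k : ℕ, m ^ r ^ k ∈ center G}
      one_mem' := ⟨M.one_mem, 0, by rw [one_pow]; exact one_mem _⟩
      mul_mem' := by
        rintro a b ⟨ha, i, hi⟩ ⟨hb, j, hj⟩
        refine ⟨M.mul_mem ha hb, i + j, ?_⟩
        have hc : Commute (a : G ⧸ center G) (b : G ⧸ center G) := by
          have h1 := (hq _).mpr (hab a ha b hb)
          rw [QuotientGroup.mk_mul, QuotientGroup.mk_mul, QuotientGroup.mk_mul, QuotientGroup.mk_inv,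
            QuotientGroup.mk_inv, mul_inv_eq_one, mul_inv_eq_iff_eq_mul] at h1
          exact h1
        rw [← hq, QuotientGroup.mk_pow, QuotientGroup.mk_mul, hc.mul_pow, pow_add, pow_mul, ← QuotientGroup.mk_pow, (hq _).mpr hi, one_pow, one_mul,
          mul_comm (r ^ i), pow_mul, ← QuotientGroup.mk_pow, (hq _).mpr hj, one_pow]
      inv_mem' := by
        rintro a ⟨ha, i, hi⟩
        exact ⟨M.inv_mem ha, i, by rw [inv_pow]; exact inv_mem hi⟩ }
  have hRM : R ≤ M := fun x hx => hx.1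
  have hRn : R.Normal := by
    constructor
    rintro m ⟨hm, k, hk⟩ g
    refine ⟨hMn.conj_mem m hm g, k, ?_⟩
    rw [conj_pow]
    exact (inferInstance : (center G).Normal).conj_mem _ hk g
  have hZR : center G < R := by
    refine lt_of_le_of_ne (fun z hz => ⟨hZM.le hz, 0, by rwa [pow_zero, pow_one]⟩) ?_
    intro heq
    have hn : ((center G).subgroupOf M).Normal := inferInstance
    have hrd' : r ∣ Nat.card (M ⧸ (center G).subgroupOf M) := by
      rw [← Subgroup.index_eq_card]; exact hrd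
    obtain ⟨x, hx⟩ := exists_prime_orderOf_dvd_card' r hrd'
    obtain ⟨m, rfl⟩ := QuotientGroup.mk_surjective x
    have h1 : m ^ r ∈ (center G).subgroupOf M := by
      rw [← QuotientGroup.eq_one_iff, QuotientGroup.mk_pow, ← hx, pow_orderOf_eq_one]
    have h2 : (m : G) ∈ R := ⟨m.2, 1, by
      rw [pow_one]
      exact Subgroup.mem_subgroupOf.mp h1⟩
    rw [← heq] at h2
    have h3 : (m : M ⧸ (center G).subgroupOf M) = 1 := (QuotientGroup.eq_one_iff m).mpr
      (Subgroup.mem_subgroupOf.mpr h2)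
    rw [h3, orderOf_one] at hx
    exact hr.one_lt.ne hx
  have hMR : M ≤ R := hmin ⟨hRn, hZR⟩ hRM
  have hpow : ∀ m ∈ M, ∃ k : ℕ, m ^ r ^ k ∈ center G := fun m hm => (hMR hm).2
  have hpg : IsPGroup r (M ⧸ (center G).subgroupOf M) := by
    intro x
    obtain ⟨m, rfl⟩ := QuotientGroup.mk_surjective x
    obtain ⟨k, hk⟩ := hpow m m.2
    refine ⟨k, ?_⟩
    rw [← QuotientGroup.mk_pow, QuotientGroup.eq_one_iff, Subgroup.mem_subgroupOf]
    exact hk
  obtain ⟨t, ht⟩ := IsPGroup.iff_card.mp hpg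
  refine ⟨M, r, t, hMn, hZM, hr, ?_, hab, hpow⟩
  rw [← ht, ← Subgroup.index_eq_card]
  rfl

/-- `M / Z` is not a `p`-group if normal `p`-subgroups are central. -/
theorem not_pgroup_above {p : ℕ} (hp : p.Prime) (hc : ∀ N : Subgroup G, N.Normal → IsPGroup p N → N ≤ center G)
    {M : Subgroup G} (hM : M.Normal) (hZM : center G < M)
    (hab : ∀ a ∈ M, ∀ b ∈ M, a * b * a⁻¹ * b⁻¹ ∈ center G)
    (hpow : ∀ m ∈ M, ∃ k : ℕ, m ^ p ^ k ∈ center G) : False := by
  classical
  have hpF := Fact.mk hp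
  have hn : ((center G).subgroupOf M).Normal := inferInstance
  let _ : CommGroup (M ⧸ (center G).subgroupOf M) :=
    { (inferInstance : Group (M ⧸ (center G).subgroupOf M)) with
      mul_comm := by
        intro x y
        obtain ⟨a, rfl⟩ := QuotientGroup.mk_surjective x
        obtain ⟨b, rfl⟩ := QuotientGroup.mk_surjective y
        have h1 : ((a * b * a⁻¹ * b⁻¹ : M) : M ⧸ (center G).subgroupOf M) = 1 :=
          (QuotientGroup.eq_one_iff _).mpr (Subgroup.mem_subgroupOf.mpr (hab a a.2 b b.2))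
        rw [QuotientGroup.mk_mul, QuotientGroup.mk_mul, QuotientGroup.mk_mul, QuotientGroup.mk_inv,
          QuotientGroup.mk_inv, mul_inv_eq_one, mul_inv_eq_iff_eq_mul] at h1
        exact h1 }
  have hnil : Group.IsNilpotent M := by
    have hnq : Group.IsNilpotent (M ⧸ (center G).subgroupOf M) := inferInstance
    refine Subgroup.isNilpotent_of_ker_le_center (QuotientGroup.mk' ((center G).subgroupOf M)) ?_
    rw [QuotientGroup.ker_mk']
    intro z hz
    rw [Subgroup.mem_center_iff]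
    intro x
    apply Subtype.ext
    exact Subgroup.mem_center_iff.mp (Subgroup.mem_subgroupOf.mp hz) x
  have hpn : Char.SD.PNorm p M := Char.SD.pnorm_of_sylow fun Q => by
    exact (Group.isNilpotent_of_finite_tfae.out 0 3 rfl rfl |>.mp hnil p hpF Q)
  obtain ⟨S, hS⟩ := hpn.exists_sub
  have hSn : S.Normal := by
    constructor
    intro x hx g
    rw [hS] at hx ⊢
    refine ⟨hM.conj_mem _ hx.1 g, ?_⟩
    obtain ⟨i, hi⟩ := hx.2
    exact ⟨i, by rw [conj_pow, hi]; group⟩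
  have hSZ : S ≤ center G := hc S hSn (Char.SD.isPGroup_of_mem fun x hx => ((hS x).mp hx).2)
  apply hZM.not_ge
  intro m hm
  obtain ⟨k, hk⟩ := hpow m hm
  obtain ⟨a, w, hw, ha⟩ := Nat.exists_eq_pow_mul_and_not_dvd (orderOf_pos m).ne' p hp.ne_one
  have h1 : m ^ w ∈ S := by
    rw [hS]
    refine ⟨M.pow_mem hm _, a, ?_⟩
    rw [← pow_mul, mul_comm, ← ha, pow_orderOf_eq_one]
  have h2 := hSZ h1
  have h3 : ((m : G ⧸ center G)) ^ w = 1 := by
    rw [← QuotientGroup.mk_pow]; exact (QuotientGroup.eq_one_iff _).mpr h2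
  have h4 : ((m : G ⧸ center G)) ^ p ^ k = 1 := by
    rw [← QuotientGroup.mk_pow]; exact (QuotientGroup.eq_one_iff _).mpr hk
  have h5 : orderOf (m : G ⧸ center G) ∣ Nat.gcd w (p ^ k) :=
    Nat.dvd_gcd (orderOf_dvd_of_pow_eq_one h3) (orderOf_dvd_of_pow_eq_one h4)
  have h6 : Nat.gcd w (p ^ k) = 1 :=
    Nat.Coprime.pow_right k ((Nat.coprime_comm.mp ((Nat.Prime.coprime_iff_not_dvd hp).mpr hw)))
  rw [h6, Nat.dvd_one, orderOf_eq_one_iff] at h5
  exact (QuotientGroup.eq_one_iff _).mp h5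

/-- the action of `P` on `M / Z` is nontrivial. -/
theorem exists_noncentral_comm {p r : ℕ} (hp : p.Prime) (hr : r.Prime) (hpr : p ≠ r) (P : Sylow p G)
    (hP : ∀ N : Subgroup G, N.Normal → (P : Subgroup G) ≤ N → N = ⊤)
    {M : Subgroup G} (hM : M.Normal) (hZM : center G < M)
    (hpow : ∀ m ∈ M, ∃ k : ℕ, m ^ r ^ k ∈ center G) :
    ∃ m ∈ M, ∃ g ∈ P, g * m * g⁻¹ * m⁻¹ ∉ center G := by
  classical
  by_contra hcon
  push Not at hcon
  have hZn : (center G).Normal := inferInstance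
  have hcen : ∀ z ∈ center G, ∀ g : G, g * z = z * g := fun z hz g => Subgroup.mem_center_iff.mp hz g
  let D : Subgroup G :=
    { carrier := {g | ∀ m ∈ M, g * m * g⁻¹ * m⁻¹ ∈ center G}
      one_mem' := by
        intro m _
        have : (1 : G) * m * 1⁻¹ * m⁻¹ = 1 := by group
        rw [this]; exact one_mem _
      mul_mem' := by
        intro a b ha hb m hm
        have h1 : a * b * m * (a * b)⁻¹ * m⁻¹ =
            (a * (b * m * b⁻¹ * m⁻¹) * a⁻¹) * (a * m * a⁻¹ * m⁻¹) := by group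
        rw [h1]
        exact mul_mem (hZn.conj_mem _ (hb m hm) a) (ha m hm)
      inv_mem' := by
        intro a ha m hm
        have h1 : a⁻¹ * m * a⁻¹⁻¹ * m⁻¹ = a⁻¹ * (a * m * a⁻¹ * m⁻¹)⁻¹ * a⁻¹⁻¹ := by group
        rw [h1]
        exact hZn.conj_mem _ (inv_mem (ha m hm)) a⁻¹ }
  have hDn : D.Normal := by
    constructor
    intro a ha g m hm
    have h1 : g * a * g⁻¹ * m * (g * a * g⁻¹)⁻¹ * m⁻¹ =
        g * (a * (g⁻¹ * m * g) * a⁻¹ * (g⁻¹ * m * g)⁻¹) * g⁻¹ := by group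
    rw [h1]
    refine hZn.conj_mem _ (ha _ ?_) g
    have h2 := hM.conj_mem m hm g⁻¹
    rwa [inv_inv] at h2
  have hD : D = ⊤ := hP D hDn (fun g hg m hm => hcon m hm g hg)
  have hD' : ∀ g : G, ∀ m ∈ M, g * m * g⁻¹ * m⁻¹ ∈ center G := by
    intro g
    have : g ∈ D := by rw [hD]; exact Subgroup.mem_top g
    exact this
  apply hZM.not_ge
  intro m hm
  have hmul : ∀ a b : G, a * b * m * (a * b)⁻¹ * m⁻¹ =
      (a * m * a⁻¹ * m⁻¹) * (b * m * b⁻¹ * m⁻¹) := by
    intro a b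
    have h1 : a * b * m * (a * b)⁻¹ * m⁻¹ =
        (a * (b * m * b⁻¹ * m⁻¹) * a⁻¹) * (a * m * a⁻¹ * m⁻¹) := by group
    rw [h1, hcen _ (hD' b m hm) a, mul_inv_cancel_right, hcen _ (hD' a m hm)]
  let f : G →* center G :=
    { toFun := fun g => ⟨g * m * g⁻¹ * m⁻¹, hD' g m hm⟩
      map_one' := Subtype.ext (by
        show (1 : G) * m * 1⁻¹ * m⁻¹ = 1
        group)
      map_mul' := fun a b => Subtype.ext (hmul a b) }
  have hf : ∀ g : G, (f g : G) = g * m * g⁻¹ * m⁻¹ := fun g => rfl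
  have hker : f.ker = ⊤ := by
    apply hP _ inferInstance
    intro g hg
    rw [MonoidHom.mem_ker]
    obtain ⟨k, hk⟩ := hpow m hm
    obtain ⟨j, hj⟩ := P.2 ⟨g, hg⟩
    have hj' : g ^ p ^ j = 1 := by simpa using congrArg Subtype.val hj
    have h1 : (f g) ^ p ^ j = 1 := by rw [← map_pow, hj', map_one]
    have h2 : (f g) ^ r ^ k = 1 := by
      apply Subtype.ext
      rw [SubmonoidClass.coe_pow, hf, OneMemClass.coe_one]
      -- `g m g⁻¹ = z m`
      have h3 : g * m * g⁻¹ = (g * m * g⁻¹ * m⁻¹) * m := by group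
      have h4 : Commute (g * m * g⁻¹ * m⁻¹) m := (hcen _ (hD' g m hm) m).symm
      have h5 : (g * m * g⁻¹) ^ r ^ k = (g * m * g⁻¹ * m⁻¹) ^ r ^ k * m ^ r ^ k := by
        conv_lhs => rw [h3]
        exact h4.mul_pow _
      rw [conj_pow, hcen _ hk g, mul_inv_cancel_right] at h5
      exact mul_eq_right.mp h5.symm
    have h6 : orderOf (f g) ∣ Nat.gcd (p ^ j) (r ^ k) :=
      Nat.dvd_gcd (orderOf_dvd_of_pow_eq_one h1) (orderOf_dvd_of_pow_eq_one h2)
    have h7 : Nat.gcd (p ^ j) (r ^ k) = 1 := Nat.Coprime.pow _ _ ((Nat.coprime_primes hp hr).mpr hpr)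
    rw [h7, Nat.dvd_one, orderOf_eq_one_iff] at h6
    exact h6
  rw [Subgroup.mem_center_iff]
  intro g
  have h1 : g ∈ f.ker := by rw [hker]; exact Subgroup.mem_top g
  have h2 : g * m * g⁻¹ * m⁻¹ = 1 := by
    rw [← hf, MonoidHom.mem_ker.mp h1]; rfl
  rwa [mul_inv_eq_one, mul_inv_eq_iff_eq_mul] at h2

end Cfsg.Agent.H49.W
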