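import Cfsg.Agent.H49.W.Main
import Cfsg.Agent.H49.W.Chief
import Cfsg.Agent.H22W.W1
import Cfsg.Agent.H48.WiSq
import Cfsg.Agent.H40.W3

/-!
# Winter's theorem, solvable case: the core and the induction (helper49)
-/

set_option autoImplicit false
set_option linter.unusedSectionVars false

namespace Cfsg.Agent.H49.W

open Cfsg Subgroup Cfsg.Agent.CharBase Cfsg.Agent.Char Cfsg.Agent.Char.GD
open scoped ComplexConjugate

universe u

section core

variable {G : Type u} [Group G] [Finite G]

/-- a constituent of the restriction to `C ≥ Z(G)` is faithful on `Z(G)`. -/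
theorem faithful_on_center {χ : IrrCharacter G}
    (hf : ∀ g : G, (χ : G → ℂ) g = (χ : G → ℂ) 1 → g = 1) {C : Subgroup G} [Fintype C]
    {ψ : C → ℂ} (hψ : IsIrrCharacter C ψ) (hne : classInner (fun n : C => (χ : G → ℂ) n) ψ ≠ 0)
    (z : C) (hz : (z : G) ∈ center G) (h1 : ψ z = ψ 1) : z = 1 := by
  classical
  apply Subtype.ext
  apply hf
  have hzC : z ∈ center C := by
    rw [Subgroup.mem_center_iff]
    intro x
    exact Subtype.ext (Subgroup.mem_center_iff.mp hz x)
  have hψ1 : ψ 1 ≠ 0 := CharBase.irr_one_ne_zero hψ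
  have hχ1 : (χ : G → ℂ) 1 ≠ 0 := CharBase.irr_one_ne_zero χ.2
  have h2 : ∀ x : C, ψ (x * z) = ψ x := by
    intro x
    rw [H75.char_mul_central hψ hzC x, h1, div_self hψ1, one_mul]
  have h3 : ∀ x : C, (χ : G → ℂ) ((x * z : C) : G) = (χ : G → ℂ) z / (χ : G → ℂ) 1 * (χ : G → ℂ) x := by
    intro x
    exact H75.char_mul_central χ.2 hz (x : G)
  have h4 : classInner (fun n : C => (χ : G → ℂ) n) ψ =
      (χ : G → ℂ) z / (χ : G → ℂ) 1 * classInner (fun n : C => (χ : G → ℂ) n) ψ := by
    have h5 : ∑ x : C, (χ : G → ℂ) x * conj (ψ x) =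
        (χ : G → ℂ) z / (χ : G → ℂ) 1 * ∑ x : C, (χ : G → ℂ) x * conj (ψ x) := by
      have h6 := Equiv.sum_comp (Equiv.mulRight z) (fun x : C => (χ : G → ℂ) x * conj (ψ x))
      have h7 : ∑ x : C, (χ : G → ℂ) ((x * z : C) : G) * conj (ψ (x * z)) =
          ∑ x : C, (χ : G → ℂ) z / (χ : G → ℂ) 1 * ((χ : G → ℂ) x * conj (ψ x)) :=
        Finset.sum_congr rfl fun x _ => by
          rw [h2, h3]
          ring
      rw [Finset.mul_sum, ← h7]
      exact h6.symm
    unfold classInner
    rw [mul_left_comm, ← h5]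
  have h5 : (χ : G → ℂ) z / (χ : G → ℂ) 1 = 1 := by
    have h6 : (1 - (χ : G → ℂ) z / (χ : G → ℂ) 1) * classInner (fun n : C => (χ : G → ℂ) n) ψ = 0 := by
      rw [sub_mul, one_mul, ← h4, sub_self]
    rcases mul_eq_zero.mp h6 with h | h
    · exact (sub_eq_zero.mp h).symm
    · exact absurd h hne
  rw [div_eq_one_iff_eq hχ1] at h5
  rw [h5]

theorem core {p : ℕ} (hp : p.Prime) (hsol : Group.IsSolvable G) (χ : IrrCharacter G)
    (hf : ∀ g : G, (χ : G → ℂ) g = (χ : G → ℂ) 1 → g = 1) (P : Sylow p G)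
    (hP : ¬ (P : Subgroup G).Normal) (hng : ¬ Gd p (charDegree (χ : G → ℂ)))
    (hN : ∀ N : Subgroup G, N.Normal → (P : Subgroup G) ≤ N → N = ⊤) : False := by
  classical
  have hpF := Fact.mk hp
  have := Fintype.ofFinite G
  have hT : ∀ T : Subgroup G, T.index ∣ charDegree (χ : G → ℂ) → T = ⊤ := by
    intro T hT
    by_contra hTt
    rcases H22W.imp hsol hp P T hTt with h | ⟨L, hL, hLt, hPL⟩
    · exact hng (Gd.mono h hT)
    · exact hLt (hN L hL hPL)
  have hhom : ∀ N : Subgroup G, N.Normal → Homog (χ : G → ℂ) N := fun N hN' =>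
    @homog_of_index G _ _ χ hT N hN'
  have hne : center G ≠ ⊤ := by
    intro h
    apply hP
    constructor
    intro x hx g
    have h1 : x ∈ center G := by rw [h]; exact Subgroup.mem_top x
    rw [Subgroup.mem_center_iff.mp h1 g, mul_inv_cancel_right]
    exact hx
  obtain ⟨M, r, t, hMn, hZM, hr, ht, hab, hpow⟩ := exists_chief_above_center hsol hne
  have hpr : p ≠ r := by
    rintro rfl
    exact not_pgroup_above hp (fun N hN' hNp => le_center_of_pgroup hp hf hng (hhom N hN') hNp)
      hMn hZM hab hpow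
  have hcM : ∀ m ∈ M, (∀ y ∈ M, m * y = y * m) → m ∈ center G := by
    intro m hm hmy
    let A : Subgroup G := M ⊓ centralizer (M : Set G)
    have hA : A ≤ center G := by
      have hAn : A.Normal := inferInstance
      refine le_center_of_comm hf (hhom A hAn) ?_
      intro a b
      apply Subtype.ext
      exact (Subgroup.mem_centralizer_iff.mp b.2.2 a a.2.1)
    apply hA
    refine Subgroup.mem_inf.mpr ⟨hm, Subgroup.mem_centralizer_iff.mpr ?_⟩
    intro y hy
    exact (hmy y hy).symm
  have hact := exists_noncentral_comm hp hr hpr P hN hMn hZM hpow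
  obtain ⟨C, hZC, hCM, hCne, hcC, hmod⟩ := H40.W3.fix hp hr hpr P M hZM.le ht hab hcM hact
  -- the degree over `M`
  obtain ⟨φ, e, hφ, hφe⟩ := hhom M hMn
  have hcenM : center M = (center G).subgroupOf M := by
    ext z
    rw [Subgroup.mem_subgroupOf]
    constructor
    · intro hz
      apply hcM z z.2
      intro y hy
      exact (congrArg Subtype.val (Subgroup.mem_center_iff.mp hz ⟨y, hy⟩)).symm
    · intro hz
      rw [Subgroup.mem_center_iff]
      intro x
      exact Subtype.ext (Subgroup.mem_center_iff.mp hz x)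
  have hcenC : center C = (center G).subgroupOf C := by
    ext z
    rw [Subgroup.mem_subgroupOf]
    constructor
    · intro hz
      apply hcC z z.2
      intro y hy
      exact (congrArg Subtype.val (Subgroup.mem_center_iff.mp hz ⟨y, hy⟩)).symm
    · intro hz
      rw [Subgroup.mem_center_iff]
      intro x
      exact Subtype.ext (Subgroup.mem_center_iff.mp hz x)
  have hsqM : (charDegree φ) ^ 2 = (center G).relIndex M := by
    have h1 := H48.Wi.sq hφ (by
      intro a b
      rw [hcenM, Subgroup.mem_subgroupOf]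
      exact hab a a.2 b b.2) (fun z _ hz => homog_faithful hf hφe z hz)
    rw [h1, hcenM]
    rfl
  have := Fintype.ofFinite C
  obtain ⟨ψ, hψ, hψne⟩ := exists_constituent_restrict C (isCharacter_of_isIrr χ.2)
    (CharBase.irr_one_ne_zero χ.2)
  have hsqC : (charDegree ψ) ^ 2 = (center G).relIndex C := by
    have h1 := H48.Wi.sq hψ (by
      intro a b
      rw [hcenC, Subgroup.mem_subgroupOf]
      exact hab a (hCM a.2) b (hCM b.2)) (fun z hz hz1 => by
        rw [hcenC, Subgroup.mem_subgroupOf] at hz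
        exact faithful_on_center hf hψ hψne z hz hz1)
    rw [h1, hcenC]
    rfl
  have hmul : (center G).relIndex C * C.relIndex M = (center G).relIndex M :=
    Subgroup.relIndex_mul_relIndex _ _ _ hZC hCM
  rw [← hsqM, ← hsqC] at hmul
  -- powers of `r`
  have h1 : charDegree φ ∣ r ^ t := by
    rw [← ht, ← hsqM]; exact dvd_pow_self _ two_ne_zero
  obtain ⟨a, -, ha⟩ := (Nat.dvd_prime_pow hr).mp h1
  have h2 : charDegree ψ ∣ r ^ (2 * a) := by
    have : r ^ (2 * a) = (charDegree φ) ^ 2 := by rw [ha, ← pow_mul, mul_comm]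
    rw [this, ← hmul]
    exact (dvd_pow_self _ two_ne_zero).mul_right _
  obtain ⟨b, -, hb⟩ := (Nat.dvd_prime_pow hr).mp h2
  rw [ha, hb] at hmul
  have h3 : C.relIndex M ≠ 0 := by
    have : (C.subgroupOf M).index ≠ 0 := Subgroup.index_ne_zero_of_finite
    exact this
  have h4 : C.relIndex M ≠ 1 := fun h => hCne (le_antisymm hCM (relIndex_eq_one.mp h))
  have hba : b < a := by
    by_contra hle
    push Not at hle
    have h5 : r ^ a ≤ r ^ b := Nat.pow_le_pow_right hr.pos hle
    have h6 : (r ^ a) ^ 2 ≤ (r ^ b) ^ 2 := Nat.pow_le_pow_left h5 2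
    have h7 : 0 < (r ^ b) ^ 2 := pow_pos (pow_pos hr.pos _) _
    have h8 : 2 ≤ C.relIndex M := by omega
    nlinarith
  obtain ⟨j, rfl⟩ := Nat.exists_eq_add_of_lt hba
  have h5 : C.relIndex M = (r ^ (j + 1)) ^ 2 := by
    have h7 : 0 < (r ^ b) ^ 2 := pow_pos (pow_pos hr.pos _) _
    apply Nat.eq_of_mul_eq_mul_left h7
    rw [hmul]
    ring
  rw [h5] at hmod
  apply hng
  refine ⟨r ^ (j + 1), (hr.isPrimePow).pow (Nat.succ_ne_zero j), ?_, ?_⟩
  · rw [(homog_deg hφ hφe).1, ha]
    refine Dvd.dvd.mul_left ?_ _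
    exact pow_dvd_pow r (by omega)
  · have h6 : (p : ℤ) ∣ ((r ^ (j + 1) : ℕ) : ℤ) ^ 2 - 1 := by
      have h7 := hmod.symm.dvd
      push_cast at h7 ⊢
      exact h7
    have h7 : (((r ^ (j + 1) : ℕ) : ℤ) ^ 2 - 1) =
        (((r ^ (j + 1) : ℕ) : ℤ) - 1) * (((r ^ (j + 1) : ℕ) : ℤ) + 1) := by ring
    rw [h7] at h6
    rcases (Nat.prime_iff_prime_int.mp hp).dvd_or_dvd h6 with h8 | h8
    · right; right
      exact (Int.modEq_iff_dvd.mpr h8).symm
    · left
      refine (Int.modEq_iff_dvd.mpr ?_).symm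
      rw [sub_neg_eq_add]
      exact h8

end core

/-- the main induction. -/
theorem main {p : ℕ} (hp : p.Prime) (c : ℕ) : ∀ (G : Type u) [Group G] [Finite G], Nat.card G = c →
    Group.IsSolvable G → ∀ χ : IrrCharacter G,
      Gd p (charDegree (χ : G → ℂ)) ∨ BT.NP p (H75.charKer (irr_isCharacter χ)) := by
  induction c using Nat.strong_induction_on with
  | _ c ih =>
  intro G _ _ hc hsol χ
  classical
  have hpF := Fact.mk hp
  have := Fintype.ofFinite G
  by_cases hng : Gd p (charDegree (χ : G → ℂ))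
  · exact Or.inl hng
  right
  by_cases hK : H75.charKer (irr_isCharacter χ) = ⊥
  · -- faithful
    have hf : ∀ g : G, (χ : G → ℂ) g = (χ : G → ℂ) 1 → g = 1 := by
      intro g hg
      have h1 : g ∈ H75.charKer (irr_isCharacter χ) := hg
      rw [hK, Subgroup.mem_bot] at h1
      exact h1
    obtain ⟨P⟩ : Nonempty (Sylow p G) := inferInstance
    have hPn : (P : Subgroup G).Normal := by
      by_contra hPn
      refine core hp hsol χ hf P hPn hng ?_
      intro N hNn hPN
      by_contra hNt
      apply hPn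
      refine Char.SD.sylow_normal_of_pnorm N ?_ P hPN
      apply Char.SD.pnorm_of_sylow
      intro Q
      have := Fintype.ofFinite N
      have := Fintype.ofFinite (IrrCharacter N)
      have hcard : Nat.card N < c := by
        rw [← hc]
        have h1 := N.card_mul_index
        have h2 : 1 < N.index := by
          have h3 : N.index ≠ 0 := Subgroup.index_ne_zero_of_finite
          have h4 : N.index ≠ 1 := fun h => hNt (Subgroup.index_eq_one.mp h)
          omega
        rw [← h1]
        exact lt_mul_of_one_lt_right Nat.card_pos h2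
      have hsolN : Group.IsSolvable N := inferInstance
      have hθ : ∀ θ : IrrCharacter N, classInner (fun n : N => (χ : G → ℂ) n) (θ : N → ℂ) ≠ 0 →
          BT.NP p (H75.charKer (irr_isCharacter θ)) := by
        intro θ hθ
        rcases ih _ hcard N rfl hsolN θ with h | h
        · exact absurd (h.mono (RelDeg.deg_dvd N θ.2 hθ)) hng
        · exact h
      let s := Finset.univ.filter (fun θ : IrrCharacter N =>
        classInner (fun n : N => (χ : G → ℂ) n) (θ : N → ℂ) ≠ 0)
      have h1 : BT.NP p (⨅ θ ∈ s, H75.charKer (irr_isCharacter θ)) :=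
        BT.NP.iInf s _ fun θ hθs => hθ θ (Finset.mem_filter.mp hθs).2
      have h2 : (⨅ θ ∈ s, H75.charKer (irr_isCharacter θ)) = ⊥ := by
        rw [eq_bot_iff]
        intro g hg
        rw [Subgroup.mem_iInf] at hg
        rw [Subgroup.mem_bot]
        apply Subtype.ext
        apply hf
        refine Char.SD.eq_one_of_constituents (G := N) (isCharacter_restrict (irr_isCharacter χ) N) (g := g) ?_
        intro ψ hψ
        exact (Subgroup.mem_iInf.mp (hg ψ)) (Finset.mem_filter.mpr ⟨Finset.mem_univ _, hψ⟩)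
      rw [h2] at h1
      exact h1.normal (fun a ha => ⟨0, by rw [Subgroup.mem_bot.mp ha, one_pow]⟩) Q
    rw [hK]
    refine ⟨(P : Subgroup G), hPn, bot_le, ?_, P.not_dvd_index⟩
    intro a ha
    obtain ⟨k, hk⟩ := P.2 ⟨a, ha⟩
    exact ⟨k, by rw [Subgroup.mem_bot]; simpa using congrArg Subtype.val hk⟩
  · -- not faithful
    have hKn : (H75.charKer (irr_isCharacter χ)).Normal := by
      constructor
      intro x hx g
      rw [H75.mem_charKer] at hx ⊢
      rw [← hx]
      exact irr_isClassFunction χ x g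
    obtain ⟨χ', hχ', hχχ'⟩ := H75.exists_deflate_irr (H75.charKer (irr_isCharacter χ)) χ.2
      (fun n hn => hn)
    have hcard : Nat.card (G ⧸ H75.charKer (irr_isCharacter χ)) < c := by
      rw [← hc, ← Subgroup.index_eq_card]
      have h1 := (H75.charKer (irr_isCharacter χ)).card_mul_index
      have h2 : 1 < Nat.card (H75.charKer (irr_isCharacter χ)) := by
        rw [Subgroup.one_lt_card_iff_ne_bot]; exact hK
      have h3 : 0 < (H75.charKer (irr_isCharacter χ)).index :=
        Nat.pos_of_ne_zero Subgroup.index_ne_zero_of_finite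
      rw [← h1]
      exact lt_mul_of_one_lt_left h3 h2
    have hdeg : charDegree χ' = charDegree (χ : G → ℂ) := by
      apply H79.charDegree_eq
      rw [← H79.irr_one, ← hχχ' 1]
      rfl
    have hsolq : Group.IsSolvable (G ⧸ H75.charKer (irr_isCharacter χ)) :=
      Group.isSolvable_of_surjective (QuotientGroup.mk'_surjective _)
    rcases ih _ hcard (G ⧸ H75.charKer (irr_isCharacter χ)) rfl hsolq ⟨χ', hχ'⟩ with h | h
    · exact absurd (by rw [← hdeg]; exact h) hng
    · have hbot : H75.charKer (irr_isCharacter (⟨χ', hχ'⟩ : IrrCharacter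
          (G ⧸ H75.charKer (irr_isCharacter χ)))) = ⊥ := by
        rw [eq_bot_iff]
        intro x hx
        obtain ⟨g, rfl⟩ := QuotientGroup.mk_surjective x
        rw [H75.mem_charKer] at hx
        rw [Subgroup.mem_bot, QuotientGroup.eq_one_iff, H75.mem_charKer, ← hχχ', ← hχχ']
        exact hx
      rw [hbot] at h
      exact h.comap

theorem winter {G : Type u} [Group G] [Finite G] (χ : IrrCharacter G)
    (hfaith : ∀ g : G, (χ : G → ℂ) g = (χ : G → ℂ) 1 → g = 1) (n : ℕ)
    (hn : charDegree (χ : G → ℂ) = n) (hsolv : Group.IsSolvable G) (p : ℕ) (hp : p.Prime)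
    (P : Sylow p G) (hP : ¬ (P : Subgroup G).Normal) : ∃ q : ℕ, IsPrimePow q ∧ q ∣ n ∧
      ((q : ℤ) ≡ -1 [ZMOD p] ∨ (q : ℤ) ≡ 0 [ZMOD p] ∨ (q : ℤ) ≡ 1 [ZMOD p]) := by
  have hpF := Fact.mk hp
  rcases main hp _ G rfl hsolv χ with h | h
  · rw [hn] at h
    exact h
  · exfalso
    apply hP
    have hK : H75.charKer (irr_isCharacter χ) = ⊥ := by
      rw [eq_bot_iff]
      intro g hg
      exact Subgroup.mem_bot.mpr (hfaith g hg)
    rw [hK] at h
    exact h.normal (fun a ha => ⟨0, by rw [Subgroup.mem_bot.mp ha, one_pow]⟩) P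

end Cfsg.Agent.H49.W
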