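import Cfsg.Agent.RelDeg.Basic
import Cfsg.Agent.BT.PSolvDeg2
import Cfsg.Agent.Char.Homog
import Cfsg.Agent.Char.SmallDeg2
import Cfsg.Agent.H75.CenterDeg
import Cfsg.Agent.H79.Linearity
import Cfsg.Agent.BlkC.Basic

/-!
# Winter's theorem, solvable case: the main induction (helper49)
-/

set_option autoImplicit false
set_option linter.unusedSectionVars false

namespace Cfsg.Agent.H49.W

open Cfsg Subgroup Cfsg.Agent.CharBase Cfsg.Agent.Char Cfsg.Agent.Char.GD
open scoped ComplexConjugate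

universe u

/-- a good prime power. -/
def Gd (p n : ℕ) : Prop := ∃ q : ℕ, IsPrimePow q ∧ q ∣ n ∧
  ((q : ℤ) ≡ -1 [ZMOD p] ∨ (q : ℤ) ≡ 0 [ZMOD p] ∨ (q : ℤ) ≡ 1 [ZMOD p])

theorem Gd.mono {p n m : ℕ} (h : Gd p n) (hd : n ∣ m) : Gd p m := by
  obtain ⟨q, h1, h2, h3⟩ := h
  exact ⟨q, h1, h2.trans hd, h3⟩

theorem Gd.of_dvd {p n : ℕ} (hp : p.Prime) (h : p ∣ n) : Gd p n :=
  ⟨p, hp.isPrimePow, h, Or.inr (Or.inl (by
    rw [Int.modEq_zero_iff_dvd]))⟩

section core

variable {G : Type u} [Group G] [Finite G]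

theorem homog_deg {χ : IrrCharacter G} {N : Subgroup G} {φ : N → ℂ} {e : ℕ} (hφ : IsIrrCharacter N φ)
    (h : (fun x : N => (χ : G → ℂ) x) = (e : ℂ) • φ) :
    charDegree (χ : G → ℂ) = e * charDegree φ ∧ e ≠ 0 := by
  have h1 := congrFun h 1
  simp only [OneMemClass.coe_one, Pi.smul_apply, smul_eq_mul] at h1
  rw [H79.irr_one, H79.char_one_eq (isCharacter_of_isIrr hφ)] at h1
  have h2 : charDegree (χ : G → ℂ) = e * charDegree φ := by exact_mod_cast h1
  refine ⟨h2, ?_⟩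
  rintro rfl
  have := H79.irr_degree_pos χ
  omega

theorem homog_faithful {χ : IrrCharacter G} (hf : ∀ g : G, (χ : G → ℂ) g = (χ : G → ℂ) 1 → g = 1)
    {N : Subgroup G} {φ : N → ℂ} {e : ℕ}
    (h : (fun x : N => (χ : G → ℂ) x) = (e : ℂ) • φ) (z : N) (hz : φ z = φ 1) : z = 1 := by
  apply Subtype.ext
  apply hf
  have h1 := congrFun h z
  have h2 := congrFun h 1
  simp only [OneMemClass.coe_one, Pi.smul_apply, smul_eq_mul] at h1 h2
  rw [h1, h2, hz]

/-- linear homogeneous restriction. -/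
theorem le_center_of_linear {χ : IrrCharacter G}
    (hf : ∀ g : G, (χ : G → ℂ) g = (χ : G → ℂ) 1 → g = 1)
    {N : Subgroup G} {φ : N → ℂ} {e : ℕ} (hφ : IsIrrCharacter N φ)
    (h : (fun x : N => (χ : G → ℂ) x) = (e : ℂ) • φ) (h1 : φ 1 = 1) : N ≤ center G := by
  classical
  intro a ha
  apply H79.mem_center_of_norm_eq χ hf
  have h2 := congrFun h ⟨a, ha⟩
  simp only [Pi.smul_apply, smul_eq_mul] at h2
  have h3 : ‖φ ⟨a, ha⟩‖ = 1 := linChar_norm (isCharacter_of_isIrr hφ) h1 _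
  rw [h2, norm_mul, h3, mul_one]
  have h4 := (homog_deg hφ h).1
  have h5 : charDegree φ = 1 := H79.charDegree_eq (by rw [h1]; simp)
  rw [h4, h5, mul_one]
  simp

/-- abelian normal subgroups are central. -/
theorem le_center_of_comm {χ : IrrCharacter G}
    (hf : ∀ g : G, (χ : G → ℂ) g = (χ : G → ℂ) 1 → g = 1)
    {N : Subgroup G} (hh : Homog (χ : G → ℂ) N) (hab : ∀ a b : N, a * b = b * a) : N ≤ center G := by
  obtain ⟨φ, e, hφ, h⟩ := hh
  exact le_center_of_linear hf hφ h (H79.linear_of_comm hab ⟨φ, hφ⟩)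

/-- normal `p`-subgroups are central. -/
theorem le_center_of_pgroup {p : ℕ} (hp : p.Prime) {χ : IrrCharacter G}
    (hf : ∀ g : G, (χ : G → ℂ) g = (χ : G → ℂ) 1 → g = 1) (hng : ¬ Gd p (charDegree (χ : G → ℂ)))
    {N : Subgroup G} (hh : Homog (χ : G → ℂ) N) (hN : IsPGroup p N) : N ≤ center G := by
  have := Fact.mk hp
  obtain ⟨φ, e, hφ, h⟩ := hh
  refine le_center_of_linear hf hφ h ?_
  obtain ⟨k, hk⟩ := IsPGroup.iff_card.mp hN
  have h1 : charDegree φ ∣ Nat.card N := BlkC.charDegree_dvd_card ⟨φ, hφ⟩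
  rw [hk] at h1
  obtain ⟨j, -, hj⟩ := (Nat.dvd_prime_pow hp).mp h1
  have h2 : j = 0 := by
    by_contra hj0
    apply hng
    apply Gd.of_dvd hp
    rw [(homog_deg hφ h).1, hj]
    exact Dvd.dvd.mul_left (dvd_pow_self p hj0) _
  rw [H79.char_one_eq (isCharacter_of_isIrr hφ), hj, h2]
  simp

theorem homog_of_index {χ : IrrCharacter G}
    (hT : ∀ T : Subgroup G, T.index ∣ charDegree (χ : G → ℂ) → T = ⊤) (N : Subgroup G)
    [hN : N.Normal] : Homog (χ : G → ℂ) N := by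
  classical
  have := Fintype.ofFinite G
  by_contra hc
  obtain ⟨T, -, hTt, ψ, hψ, hind⟩ := exists_induced_of_not_homog χ.2 N hc
  apply hTt
  apply hT
  have := Fintype.ofFinite T
  have h1 := indFun_one_apply T ψ
  rw [hind, H79.irr_one, H79.char_one_eq (isCharacter_of_isIrr hψ)] at h1
  have h2 : charDegree (χ : G → ℂ) = T.index * charDegree ψ := by exact_mod_cast h1
  rw [h2]
  exact dvd_mul_right _ _

end core

end Cfsg.Agent.H49.W
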